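import Cfsg.Agent.H4.P6.D
import Cfsg.Agent.H1.L4.Ix
import Cfsg.Agent.H2.L4X1

/-! Case I in `SL₄`: the centraliser of an involution fixes a point. -/

set_option autoImplicit false
set_option linter.unusedSectionVars false
set_option linter.unusedVariables false
set_option linter.unusedSimpArgs false

namespace Cfsg.Agent.H4.P6

open Subgroup Matrix Cfsg.Agent.H8 Cfsg.Agent.H8.M3 Cfsg.Agent.H9.C2
open scoped MatrixGroups

universe u

variable {k Γ : Type*} {G : Type u} [Field k] [Group Γ] [Group G] {m : Γ →* M4 k} {π : Γ →* G}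
  {b g t u h : Γ} {β : M2 k → M2 k → M4 k}

theorem cen_sign {H : Type*} [Group H] (ψ : Γ →* H) {z e : H} (he : ∀ x, e * x = x * e) (e2 : e * e = 1)
    {S : Subgroup Γ} (odd : Odd S.index) (hS : ∀ g ∈ S, ψ g * z = z * ψ g) (hg : ψ g * z * (ψ g)⁻¹ = e * z) :
    ψ g * z = z * ψ g := by
  have le : S ≤ (centralizer {z}).comap ψ := fun a ha => mem_centralizer_singleton_iff.2 (hS a ha)
  refine mem_centralizer_singleton_iff.1 (mem_comap.1 (H44.mem_of_sq (odd.of_dvd_nat (index_dvd_of_le le))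
    (mem_normalizer_iff.2 fun a => ?_) ?_))
  · simp only [SetLike.mem_coe, mem_comap, mem_centralizer_singleton_iff, map_mul, map_inv]
    have : ∀ x, x * z = z * x ↔ x * (e * z) = e * z * x := fun x => by
      rw [← mul_assoc, ← he, mul_assoc, mul_assoc, mul_right_inj]
    rw [this (ψ g * _ * _), ← hg, conj_mul, conj_mul, mul_left_inj, mul_right_inj]
  · rw [mem_comap, mem_centralizer_singleton_iff, map_mul, ← mul_inv_eq_iff_eq_mul,
      show ψ g * ψ g * z * (ψ g * ψ g)⁻¹ = ψ g * (ψ g * z * (ψ g)⁻¹) * (ψ g)⁻¹ by group, hg, ← mul_assoc,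
      ← he, mul_assoc e, mul_assoc e, hg, ← mul_assoc, e2, one_mul]

theorem Bl.pow (hβ : Bl β) {B C : M2 k} (n : ℕ) : β B C ^ n = β (B ^ n) (C ^ n) := by
  induction n with
  | zero => simp [hβ.one]
  | succ n ih => rw [pow_succ, ih, hβ.mul, pow_succ, pow_succ]

theorem dpow (x y : k) (n : ℕ) : !![x, 0; 0, y] ^ n = !![x ^ n, 0; 0, y ^ n] := by
  induction n with
  | zero => simp [one_fin_two]
  | succ n ih => simp [pow_succ, ih]

theorem MB.dk1 [IsAlgClosed k] {p : ℕ} [hp : Fact p.Prime] [CharP k p] (h : MB m π) (hβ : Bl β)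
    (mt : m t = β 1 (-1)) {S : Subgroup Γ} (odd : Odd S.index)
    (hS : ∀ g ∈ S, ∃ B x y, m g = β B !![x, 0; 0, y]) {B0 : M2 k} {x y : k} (mb : m b = β B0 !![x, 0; 0, y])
    (xy : x * x = -(y * y)) {B C : M2 k} (mg : m g = β B C) : C 1 0 = 0 := by
  have := h.fin
  have two := h.two
  have ex : ∀ g : centralizer {t}, ∃ B C, m g = β B C := fun g =>
    hβ.ex (mt ▸ h.cm.1 (mem_centralizer_singleton_iff.1 g.2))
  have mem : ∀ {g B C}, m g = β B C → g ∈ centralizer {t} := fun e =>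
    mem_centralizer_singleton_iff.2 (h.cm.2 (by rw [e, mt, hβ.mul, hβ.mul]; simp))
  choose up lo ex using ex
  let ψ : centralizer {t} →* GL (Fin 2) k := MonoidHom.toHomUnits
    { toFun := lo
      map_one' := (hβ.inj.1 ((ex 1).symm.trans ((map_one m).trans hβ.one))).2
      map_mul' a b := (hβ.inj.1 ((ex (a * b)).symm.trans ((map_mul m _ _).trans (by rw [ex, ex, hβ.mul])))).2 }
  have hψ : ∀ {g B C} (e : m g = β B C), (ψ ⟨g, mem e⟩).1 = C := fun e =>
    (hβ.inj.1 ((ex ⟨_, mem e⟩).symm.trans e)).2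
  have po : Odd p := hp.out.odd_of_ne_two (by rintro rfl; exact h.two (CharP.cast_eq_zero k 2))
  obtain ⟨χ, hχ⟩ : ∃ χ, χ = (ProjGenLinGroup.mk : GL (Fin 2) k →* PGL(2, k)).comp ψ := ⟨_, rfl⟩
  have : Finite χ.range := Finite.Set.finite_range _
  have y0 : y ≠ 0 := by
    rintro rfl
    simpa [hψ mb] using (ψ ⟨b, mem mb⟩).det_ne_zero
  have odd' : Odd (S.subgroupOf (centralizer {t})).index := odd.of_dvd_nat (relIndex_dvd_index_of_le fun g hg =>
    let ⟨_, _, _, e⟩ := hS g hg; mem e)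
  have hS' : ∀ g ∈ S.subgroupOf (centralizer {t}), ∃ x y : k, (ψ g).1 = !![x, 0; 0, y] := fun g hg =>
    let ⟨_, x, y, e⟩ := hS g hg; ⟨x, y, hψ e⟩
  rcases dickson_tame p χ.range (fun hd => by
    obtain ⟨x, hx⟩ := exists_prime_orderOf_dvd_card' p (hd.trans (card_range_dvd _))
    have e1 : x.1 ^ p = 1 := by rw [← Subgroup.coe_pow, ← hx, pow_orderOf_eq_one]; rfl
    have e2 := congrArg m e1
    rw [map_pow, ex, hβ.pow, map_one, hβ.one, hβ.inj] at e2
    have n : ∀ B : M2 k, B ^ p = 1 → (B - 1) * (B - 1) = 0 := fun B e => sq_zero_of_nilp ⟨p, by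
      rw [sub_pow_char_of_commute _ (Commute.one_right B), e, one_pow, sub_self]⟩
    have := h.quad1 x p 1 1 po e1 (by rw [ex, one_smul, hβ.one, hβ.sub, hβ.mul, n _ e2.1, n _ e2.2, hβ.zero])
    rw [show x = 1 from Subtype.ext this, orderOf_one] at hx
    exact hp.out.one_lt.ne hx) with ⟨γ, hγ⟩ | ⟨n, h1, h2⟩
  · have sc : ∀ a b, ψ a * ψ a * (ψ b * ψ b) = ψ b * ψ b * (ψ a * ψ a) := fun g g' => by
      obtain ⟨a, b, f⟩ := sq_diag (hγ (ψ g) ⟨g, by rw [hχ]; rfl⟩)
      obtain ⟨a', b', f'⟩ := sq_diag (hγ (ψ g') ⟨g', by rw [hχ]; rfl⟩)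
      generalize ψ g = X at f
      generalize ψ g' = Y at f'
      have : γ⁻¹ * X * γ * (γ⁻¹ * X * γ) * (γ⁻¹ * Y * γ * (γ⁻¹ * Y * γ)) =
          γ⁻¹ * Y * γ * (γ⁻¹ * Y * γ) * (γ⁻¹ * X * γ * (γ⁻¹ * X * γ)) := Units.ext (by
        rw [Units.val_mul, Units.val_mul (γ⁻¹ * Y * γ * _), f, f']; simp [mul_comm])
      exact mul_right_cancel (b := γ) (by simpa [mul_assoc] using this)
    obtain ⟨z, hz⟩ : ∃ z, z = ψ ⟨b, mem mb⟩ * ψ ⟨b, mem mb⟩ := ⟨_, rfl⟩
    have zv : z.1 = !![-(y * y), 0; 0, y * y] := by rw [hz, Units.val_mul, hψ mb, ← xy]; simp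
    have c1 := sc (⟨g, mem mg⟩ * ⟨b, mem mb⟩ * ⟨g, mem mg⟩⁻¹) ⟨b, mem mb⟩
    simp only [map_mul, map_inv, conj_mul, ← hz] at c1
    obtain ⟨w, hw⟩ : ∃ w, w = ψ ⟨g, mem mg⟩ * z * (ψ ⟨g, mem mg⟩)⁻¹ := ⟨_, rfl⟩
    have c2 : w.1 * w.1 = (y * y * (y * y)) • 1 := by
      rw [← Units.val_mul, hw, conj_mul, Units.val_mul, Units.val_mul, Units.val_mul z, zv,
        show !![-(y * y), 0; 0, y * y] * !![-(y * y), 0; 0, y * y] = (y * y * (y * y)) • (1 : M2 k) by
          simp [one_fin_two]]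
      simp
    have c3 : w.1.trace = 0 := by rw [hw, Units.val_mul, Units.val_mul, trace_units_conj, zv]; simp
    rw [← hw] at c1
    replace c1 := congrArg Units.val c1
    rw [Units.val_mul, Units.val_mul, zv] at c1
    have q0 := congrFun (congrFun c1 0) 1
    have q1 := congrFun (congrFun c1 1) 0
    have q2 := congrFun (congrFun c2 1) 1
    simp [mul_apply, trace_fin_two] at q0 q1 q2 c3
    have r0 : w.1 0 1 = 0 := by grind
    have r1 : w.1 1 0 = 0 := by grind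
    have fin : ψ ⟨g, mem mg⟩ * z = z * ψ ⟨g, mem mg⟩ := by
      have hS'' : ∀ g ∈ S.subgroupOf (centralizer {t}), ψ g * z = z * ψ g := fun g hg => Units.ext (by
        obtain ⟨a, b, e⟩ := hS' g hg
        rw [Units.val_mul, Units.val_mul, e, zv]; simp [mul_comm])
      rcases mul_self_eq_mul_self_iff.1 (show w.1 1 1 * w.1 1 1 = y * y * (y * y) by grind) with e | e
      · exact cen_sign ψ (e := 1) (by simp) (by simp) odd' hS'' (hw.symm.trans (Units.ext (by
          rw [one_mul, zv]; ext i j; fin_cases i <;> fin_cases j <;> simp <;> grind)))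
      · exact cen_sign ψ (e := -1) (by simp) (by simp) odd' hS'' (hw.symm.trans (Units.ext (by
          rw [neg_mul, one_mul, Units.val_neg, zv]; ext i j; fin_cases i <;> fin_cases j <;> simp <;> grind)))
    replace fin := congrArg Units.val fin
    rw [Units.val_mul, Units.val_mul, hψ mg, zv] at fin
    have := congrFun (congrFun fin 1) 0
    simp [mul_apply] at this
    grind
  exfalso
  have k1 : ∀ (g : centralizer {t}) {x y : k}, (ψ g).1 = !![x, 0; 0, y] → ∀ i : ℕ,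
      (χ g ^ i = 1 ↔ x ^ i = y ^ i) := fun g x y e i => by
    rw [hχ, ← map_pow, MonoidHom.comp_apply, mk_eq_one_iff, map_pow, Units.val_pow_eq_pow_val, e, dpow]; simp
  replace h2 : ∀ g, χ g ^ 2 = 1 ∨ χ g ^ 3 = 1 ∨ χ g ^ n = 1 := fun g => by
    simpa [Subtype.ext_iff] using h2 ⟨_, g, rfl⟩
  have yy : y * y ≠ 0 := mul_ne_zero y0 y0
  obtain ⟨rfl, c24⟩ : n = 4 ∧ Nat.card χ.range = 24 := by
    have := h2 ⟨b, mem mb⟩
    simp only [k1 _ (hψ mb)] at this
    rcases h1 with ⟨rfl, -⟩ | a | ⟨rfl, -⟩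
    · grind
    · exact a
    · grind
  choose dx dy hd using hS'
  have n0 : ∀ g hg, dx g hg ≠ 0 ∧ dy g hg ≠ 0 := fun g hg => by
    simpa [hd g hg] using (ψ g).det_ne_zero
  let ρ : S.subgroupOf (centralizer {t}) →* kˣ := MonoidHom.mk'
    (fun g => Units.mk0 (dx g g.2 / dy g g.2) (div_ne_zero (n0 _ _).1 (n0 _ _).2)) fun a b => Units.ext (by
      have := congrArg Units.val (map_mul ψ a.1 b.1)
      rw [Units.val_mul, hd a a.2, hd b b.2, show (ψ (a.1 * b.1)).1 = _ from hd _ (a * b).2] at this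
      have e0 := congrFun (congrFun this 0) 0
      have e1 := congrFun (congrFun this 1) 1
      simp [mul_apply] at e0 e1
      simp only [Units.val_mul, Units.val_mk0, div_mul_div_comm]
      exact congrArg₂ _ e0 e1)
  have k2 : ∀ (g : S.subgroupOf (centralizer {t})) (i : ℕ), ρ g ^ i = 1 ↔ χ g ^ i = 1 := fun g i => by
    rw [k1 _ (hd g g.2), Units.ext_iff, Units.val_pow_eq_pow_val]
    exact (by rw [div_pow, div_eq_one_iff_eq (pow_ne_zero _ (n0 _ _).2)] : (dx g g.2 / dy g g.2) ^ i = 1 ↔ _)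
  have : Finite ρ.range := Finite.Set.finite_range _
  obtain ⟨⟨_, s, rfl⟩, hs⟩ := IsCyclic.exists_ofOrder_eq_natCard (α := ρ.range)
  have c1 : Nat.card ρ.range = χ.ker.relIndex (S.subgroupOf (centralizer {t})) := by
    rw [← index_ker, relIndex]; congr 1; ext a
    simpa [mem_subgroupOf] using k2 a 1
  have c2 : χ.ker.index ∣ Nat.card ρ.range * (S.subgroupOf (centralizer {t})).index := by
    rw [c1, ← inf_relIndex_right, relIndex_mul_index inf_le_right]; exact index_dvd_of_le inf_le_left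
  rw [index_ker, c24, ← hs, ← orderOf_coe] at c2
  have c3 : 8 ∣ orderOf (ρ s) := ((Nat.coprime_two_left.2 odd').pow_left 3).dvd_of_dvd_mul_right
    (dvd_trans (by decide) c2)
  rcases h2 s with e | e | e <;> exact absurd (c3.trans (orderOf_dvd_of_pow_eq_one ((k2 s _).2 e))) (by decide)

open Module Cfsg.Agent.H6.L4 Cfsg.Agent.LD.F4 Cfsg.Agent.H1.L4 in
theorem d1' {V : Type*} [AddCommGroup V] [Module k V] [FiniteDimensional k V] {P : Subgroup (End k V)ˣ}
    {π : P →* G} {p : ℕ} [IsAlgClosed k] [Fact p.Prime] [CharP k p] (H : Beta P π) {t u h b : G}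
    (S : Subgroup G) (c : Cy (Yc π) t u h) (h3 : h ^ 3 = 1) (bt : Yc π b t) (bu : Yc π b u) (bb : b * b = u)
    (ns : ∀ g, g * t = t * g → Yc π g t) (odd : Odd S.index)
    (hS : ∀ g ∈ S, g * t = t * g ∧ B4 t u (g * u * g⁻¹)) :
    ∃ M : Subgroup G, M ≠ ⊤ ∧ (∀ g, g * t = t * g → g ∈ M) ∧ h ∈ M := by
  obtain ⟨B, t, u, h, rfl, rfl, rfl, mt, mu, mh⟩ := frame H c.f c.h1 c.h2 h3
  have M := mb H B
  have two := H.two
  obtain ⟨b, rfl⟩ := H.surj b
  have yc : ∀ {a b : P}, Yc π (π a) (π b) → a * b = b * a := fun e =>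
    Subtype.ext ((H7.FA.yc_iff H.toSt _ _).1 e)
  have ht : h * t = u * h := M.inj (by rw [map_mul, map_mul, mt, mu, mh]; mxs)
  have hu : h * u = t * u * h := M.inj (by simp only [map_mul, mt, mu, mh]; mxs; gr)
  have tt : t * t = 1 := M.inj (by rw [map_mul, map_one, mt]; mxs; gr)
  have nt : ∀ g, π g * π t = π t * π g → g * t = t * g := fun g e => yc (ns _ e)
  have nu : ∀ g, π g * π u = π u * π g → g * u = u * g := fun g e => by
    have := nt (h⁻¹ * g * h) (by
      rw [← c.h1] at e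
      simp only [map_mul, map_inv]
      calc _ = (π h)⁻¹ * (π g * (π h * π t * (π h)⁻¹)) * π h := by group
        _ = _ := by rw [e]; group)
    calc g * u = h * (h⁻¹ * g * h * t) * h⁻¹ := by rw [mul_assoc _ h, ht]; group
      _ = _ := by rw [this, ← mul_assoc, ht]; group
  have bk : ∀ g, g * t = t * g → ∃ X Y, mat P B g = bl X Y := fun g e =>
    bl_ex two (by rw [D1, ← mt]; exact M.cm.1 e)
  have dg : ∀ g, g * t = t * g → (g * u = u * g ∨ g * u = t * u * g) →
      ∃ Y x y, mat P B g = bl !![x, 0; 0, y] Y := fun g e e' => by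
    obtain ⟨X, Y, f⟩ := bk g e
    refine ⟨Y, X 0 0, X 1 1, ?_⟩
    have : X 0 1 = 0 ∧ X 1 0 = 0 := by
      rcases e' with e' | e' <;> have := congrArg (mat P B) e' <;>
        simp only [map_mul, f, mt, mu, bl] at this <;> mxs at this <;> gr
    rw [f, eta_fin_two X, this.1, this.2]; rfl
  have key : ∀ g, π g * π t = π t * π g → ∃ c : k, g.1.1 (B 0) = c • B 0 := fun g e => by
    obtain ⟨X, Y, f⟩ := bk g (nt g e)
    obtain ⟨Y0, x, y, f0⟩ := dg b (yc bt) (Or.inl (yc bu))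
    obtain ⟨s, hs⟩ := M.eq_iff.1 ((map_mul π b b).trans bb)
    rw [map_mul, f0, mu] at hs
    simp only [bl] at hs; mxs at hs; simp at hs
    obtain ⟨z, hz⟩ := M.sca (-1) (by ring)
    have := M.dk1 (p := p) (Bl2 two) (t := z * t) (by
      rw [map_mul, hz, mt, ← D1, smul_mul_assoc, one_mul, bl_smul]; simp) (S := S.comap π)
      (by rwa [index_comap_of_surjective S H.surj]) (fun g hg => by
        obtain ⟨e1, e2⟩ := hS _ hg
        refine dg g (nt g e1) ?_
        rcases e2 with e2 | e2 | e2 | e2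
        · exact absurd (by simpa [mul_inv_eq_one] using e2) c.f.iu.2
        · rw [mul_inv_eq_iff_eq_mul, ← e1, mul_right_inj] at e2
          exact absurd e2.symm c.f.ne
        · exact Or.inl (nu g (mul_inv_eq_iff_eq_mul.1 e2))
        · have := nu (g * h) (by
            rw [mul_inv_eq_iff_eq_mul] at e2
            rw [map_mul, mul_assoc, mul_inv_eq_iff_eq_mul.1 c.h2, ← mul_assoc, ← mul_assoc, e1, mul_assoc (π t), e2,
              ← mul_assoc, ← mul_assoc, c.f.it.1, one_mul, mul_assoc])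
          rw [mul_assoc, hu, ← mul_assoc, ← mul_assoc, ← mul_assoc, mul_left_inj, nt g e1] at this
          exact Or.inr (by rw [mul_assoc t, ← this, ← mul_assoc, ← mul_assoc, tt, one_mul])) f0 (by grind) f
    refine ⟨X 0 0, ?_⟩
    have r : ∀ i, B.repr (g.1.1 (B 0)) i = bl X Y i 0 := fun i => by
      rw [← f]; exact (LinearMap.toMatrix_apply B B _ i 0).symm
    rw [← B.sum_repr (g.1.1 (B 0)), Fin.sum_univ_four, r, r, r, r]
    simp [bl, mx, this]
  let L : Subgroup P :=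
    { carrier := {g | ∃ c : k, g.1.1 (B 0) = c • B 0}
      one_mem' := ⟨1, by simp⟩
      mul_mem' := fun {a b} ⟨c, e⟩ ⟨d, f⟩ => ⟨d * c, by simp [e, f, smul_smul]⟩
      inv_mem' := fun {a} ⟨c, e⟩ => by
        have e1 : c • a⁻¹.1.1 (B 0) = B 0 := by rw [← map_smul, ← e]; exact H6.S4.iu _ _
        have c0 : c ≠ 0 := by rintro rfl; exact B.ne_zero 0 (by simpa using e1.symm)
        exact ⟨c⁻¹, by rw [eq_inv_smul_iff₀ c0, e1]⟩ }
  refine ⟨L.map π, fun e => ?_, fun g e => ?_, h, ⟨1, ?_⟩, rfl⟩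
  · rcases H.irr (k ∙ B 0) (fun g hg v hv => by
      obtain ⟨a, ⟨c, ha⟩, f⟩ : π ⟨g, hg⟩ ∈ L.map π := e ▸ mem_top _
      obtain ⟨d, hd⟩ := H.eq_iff.1 f.symm
      obtain ⟨s, rfl⟩ := Submodule.mem_span_singleton.1 hv
      exact Submodule.mem_span_singleton.2 ⟨s * (d * c), by
        simp only at hd; simp [hd, ha, smul_smul]⟩) with f | f
    · exact B.ne_zero 0 (Submodule.span_singleton_eq_bot.1 f)
    · have := finrank_span_singleton (K := k) (B.ne_zero 0)
      rw [f, finrank_top, H.dim] at this; omega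
  · obtain ⟨g, rfl⟩ := H.surj g
    exact ⟨g, key g e, rfl⟩
  · have r : ∀ i, B.repr (h.1.1 (B 0)) i = mat P B h i 0 := fun i => (LinearMap.toMatrix_apply B B _ i 0).symm
    rw [← B.sum_repr (h.1.1 (B 0)), Fin.sum_univ_four, r, r, r, r, mh]
    simp [mx]

open Module Cfsg.Agent.H6.L4 Cfsg.Agent.LD.F4 Cfsg.Agent.H1.L4 in
/-- the field `d1` -/
theorem d1 {V : Type*} [AddCommGroup V] [Module k V] [FiniteDimensional k V] {P : Subgroup (End k V)ˣ}
    {π : P →* G} (p : ℕ) [IsAlgClosed k] [Fact p.Prime] [CharP k p] (H : Beta P π) {t u h b : G}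
    (S : Subgroup G) (c : Cy (Yc π) t u h) (bt : Yc π b t) (bu : Yc π b u) (bb : b * b = u)
    (ns : ∀ g, g * t = t * g → Yc π g t) (odd : Odd S.index)
    (hS : ∀ g ∈ S, g * t = t * g ∧ B4 t u (g * u * g⁻¹)) :
    ∃ M : Subgroup G, M ≠ ⊤ ∧ (∀ g, g * t = t * g → g ∈ M) ∧ h ∈ M := by
  have tt := c.f.it.1
  have uu := c.f.iu.1
  have tu : u * t = t * u := by
    obtain ⟨a, b, rfl, rfl, e⟩ := c.f.y
    rw [← map_mul, ← map_mul, show a * b = b * a from Subtype.ext e]
  have l : ∀ {a b c : G}, a * b = c → ∀ x, a * (b * x) = c * x := fun e x => by rw [← e, mul_assoc]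
  have k1 := mul_inv_eq_iff_eq_mul.1 c.h1
  have k2 := mul_inv_eq_iff_eq_mul.1 c.h2
  have y1 := ns (h ^ 3) (by simp only [pow_succ, pow_zero, one_mul, mul_assoc, k1, k2, l k1, l k2, l tt, l uu, l tu])
  refine d1' (p := p) H S c (H2.LX.fx H c y1 ?_ (Commute.self_pow h 3)) bt bu bb ns odd hS
  obtain ⟨x, y, e1, e2, e⟩ := y1
  obtain ⟨h, rfl⟩ := H.surj h
  exact ⟨h * x * h⁻¹, h * y * h⁻¹, by rw [map_mul, map_mul, e1, map_inv]; group,
    by rw [map_mul, map_mul, e2, map_inv, c.h1], by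
      simp only [Subgroup.coe_mul, Subgroup.coe_inv, conj_mul, e]⟩

end Cfsg.Agent.H4.P6
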